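import Cfsg.Agent.Helper28.SP4L.Data

set_option autoImplicit false

namespace Cfsg.Agent.Helper28.SP4L

theorem lb3_0 : Cfsg.Agent.Helper28.ptChunk (Cfsg.Agent.Helper28.lbPt Cfsg.Agent.Helper28.SP4T.T 255 W3 ov3 op3 otp3 otw3) 15 256 0 = true := by decide +kernel

end Cfsg.Agent.Helper28.SP4L
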