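import Cfsg.Agent.Helper28.SP4T.Cert
import Cfsg.Agent.Helper28.SP4L.Lb2_0
import Cfsg.Agent.Helper28.SP4L.Lb3_0
import Cfsg.Agent.Helper28.SP4L.Lb4_0

set_option autoImplicit false

namespace Cfsg.Agent.Helper28.SP4L

theorem lb2_all : ∀ t, t < 64 → Cfsg.Agent.Helper28.lbPt Cfsg.Agent.Helper28.SP4T.T 255 W2 ov2 op2 otp2 otw2 t = true :=
  Cfsg.Agent.Helper28.pts_of_chunks _ 64 256 1 (by decide) (by decide)
    (Cfsg.Agent.Helper28.allLt_succ _ 0 (Cfsg.Agent.Helper28.allLt_zero _) lb2_0)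

theorem fix2 : Cfsg.Agent.Helper28.fixChk Cfsg.Agent.Helper28.SP4T.T 6 W2 [0] = true := by decide +kernel

theorem lb3_all : ∀ t, t < 15 → Cfsg.Agent.Helper28.lbPt Cfsg.Agent.Helper28.SP4T.T 255 W3 ov3 op3 otp3 otw3 t = true :=
  Cfsg.Agent.Helper28.pts_of_chunks _ 15 256 1 (by decide) (by decide)
    (Cfsg.Agent.Helper28.allLt_succ _ 0 (Cfsg.Agent.Helper28.allLt_zero _) lb3_0)

theorem fix3 : Cfsg.Agent.Helper28.fixChk Cfsg.Agent.Helper28.SP4T.T 6 W3 [ov2 0, 0] = true := by decide +kernel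

theorem lb4_all : ∀ t, t < 4 → Cfsg.Agent.Helper28.lbPt Cfsg.Agent.Helper28.SP4T.T 255 W4 ov4 op4 otp4 otw4 t = true :=
  Cfsg.Agent.Helper28.pts_of_chunks _ 4 256 1 (by decide) (by decide)
    (Cfsg.Agent.Helper28.allLt_succ _ 0 (Cfsg.Agent.Helper28.allLt_zero _) lb4_0)

theorem fix4 : Cfsg.Agent.Helper28.fixChk Cfsg.Agent.Helper28.SP4T.T 6 W4 [ov3 0, ov2 0, 0] = true := by decide +kernel

/-- the stabiliser chain bounds the order from below -/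
theorem lb_chain [Finite Cfsg.Agent.Helper28.SP4.Q] :
    255 * 64 * 15 * 4 * Nat.card (Cfsg.Agent.Helper28.fixSub Cfsg.Agent.Helper28.SP4T.cert.perm [ov4 0, ov3 0, ov2 0, 0]) ≤ Nat.card Cfsg.Agent.Helper28.SP4.Q :=
  Cfsg.Agent.Helper28.chain_mul (Cfsg.Agent.Helper28.chain_mul (Cfsg.Agent.Helper28.chain_mul (Cfsg.Agent.Helper28.SP4T.cert.lb_top) (Cfsg.Agent.Helper28.SP4T.cert.lb_level [0] W2 64 ov2 op2 otp2 otw2 fix2 lb2_all)) (Cfsg.Agent.Helper28.SP4T.cert.lb_level [ov2 0, 0] W3 15 ov3 op3 otp3 otw3 fix3 lb3_all)) (Cfsg.Agent.Helper28.SP4T.cert.lb_level [ov3 0, ov2 0, 0] W4 4 ov4 op4 otp4 otw4 fix4 lb4_all)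

end Cfsg.Agent.Helper28.SP4L
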